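import Mathlib
import Cfsg.Prelude.Def_CaseTheorems

/-!
# Groups with a cyclic subgroup `C` of index 2 on which outside elements have at most two fixed points
-/

set_option autoImplicit false
set_option linter.style.haveILetI false

namespace Cfsg.Agent.H21

open Subgroup

/-- The property used: dihedral and quasi-dihedral groups satisfy it. -/
def CycIdxTwo (Q : Type*) [Group Q] : Prop :=
  ∃ C : Subgroup Q, IsCyclic C ∧ (∀ a b : Q, a ∉ C → b ∉ C → a * b ∈ C) ∧
    ∀ c ∈ C, ∀ w : Q, w ∉ C → w * c = c * w → c * c = 1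

theorem CycIdxTwo.of_equiv {Q Q' : Type*} [Group Q] [Group Q'] (e : Q ≃* Q') (h : CycIdxTwo Q') :
    CycIdxTwo Q := by
  obtain ⟨C, hC, h1, h2⟩ := h
  refine ⟨C.comap e.toMonoidHom, ?_, ?_, ?_⟩
  · refine isCyclic_of_injective ((e.toMonoidHom.comp (C.comap e.toMonoidHom).subtype).codRestrict C
      (fun x => x.2)) ?_
    intro x y hxy
    have h3 : e (x : Q) = e (y : Q) := congrArg (fun z : C => (z : Q')) hxy
    exact Subtype.ext (e.injective h3)
  · intro a b ha hb
    rw [Subgroup.mem_comap] at *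
    rw [map_mul]
    exact h1 _ _ ha hb
  · intro c hc w hw hwc
    have h3 := h2 (e c) hc (e w) hw (by rw [← map_mul, hwc, map_mul])
    apply e.injective
    rw [map_mul, h3, map_one]

theorem cycIdxTwo_dihedral (m : ℕ) (hm : 2 ≤ m) : CycIdxTwo (DihedralGroup m) := by
  haveI : NeZero m := ⟨by omega⟩
  have hrot : ∀ i : ZMod m, DihedralGroup.r i ∈ zpowers (DihedralGroup.r (1 : ZMod m)) := by
    intro i
    refine ⟨(i.val : ℤ), ?_⟩
    show (DihedralGroup.r (1 : ZMod m)) ^ (i.val : ℤ) = DihedralGroup.r i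
    rw [DihedralGroup.r_one_zpow]
    simp
  have hnot : ∀ i : ZMod m, DihedralGroup.sr i ∉ zpowers (DihedralGroup.r (1 : ZMod m)) := by
    rintro i ⟨k, hk⟩
    have hk' : (DihedralGroup.r (1 : ZMod m)) ^ k = DihedralGroup.sr i := hk
    rw [DihedralGroup.r_one_zpow] at hk'
    cases hk'
  refine ⟨zpowers (DihedralGroup.r (1 : ZMod m)), inferInstance, ?_, ?_⟩
  · rintro (i | i) (j | j) ha hb
    · exact absurd (hrot i) ha
    · exact absurd (hrot i) ha
    · exact absurd (hrot j) hb
    · rw [DihedralGroup.sr_mul_sr]; exact hrot _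
  · rintro (i | i) hc (j | j) hw hwc
    · exact absurd (hrot j) hw
    · rw [DihedralGroup.sr_mul_r, DihedralGroup.r_mul_sr] at hwc
      have h1 : j + i = j - i := by injection hwc
      rw [DihedralGroup.r_mul_r, DihedralGroup.one_def]
      congr 1
      linear_combination h1
    · exact absurd hc (hnot i)
    · exact absurd hc (hnot i)

theorem cycIdxTwo_quasiDihedral {Q : Type*} [Group Q] (h : Cfsg.IsQuasiDihedral Q) : CycIdxTwo Q := by
  obtain ⟨n, hn, hcard, x, y, hx, hy, hyx⟩ := h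
  haveI : Finite Q := Nat.finite_of_card_ne_zero (by rw [hcard]; positivity)
  have hidx : (zpowers x).index = 2 := by
    have h1 := Subgroup.card_mul_index (zpowers x)
    rw [Nat.card_zpowers, hx, hcard, pow_succ] at h1
    exact Nat.eq_of_mul_eq_mul_left (by positivity) h1
  have hyC : y ∉ zpowers x := by
    intro hc
    rw [Subgroup.mem_zpowers_iff] at hc
    obtain ⟨k, rfl⟩ := hc
    have h1 : x ^ k * x * (x ^ k)⁻¹ = x ^ (1 : ℤ) := by
      have h0 : Commute (x ^ k) x := (Commute.refl x).zpow_left k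
      rw [h0.eq, mul_inv_cancel_right, zpow_one]
    rw [h1, ← zpow_natCast, zpow_eq_zpow_iff_modEq, hx] at hyx
    have h2 := hyx.symm.dvd
    have h3 : ((2 ^ (n - 1) - 1 : ℕ) : ℤ) = 2 ^ (n - 1) - 1 := by
      push_cast [Nat.one_le_two_pow]; ring
    have h4 : ((2 ^ n : ℕ) : ℤ) = 2 * 2 ^ (n - 1) := by
      push_cast
      rw [← pow_succ']
      congr 1
      omega
    rw [h3, h4] at h2
    have h5 : (4 : ℤ) ≤ 2 ^ (n - 1) := by
      calc (4 : ℤ) = 2 ^ 2 := by norm_num
        _ ≤ 2 ^ (n - 1) := pow_le_pow_right₀ (by norm_num) (by omega)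
    obtain ⟨c, hc⟩ := h2
    have h6 : 2 * (2 : ℤ) ^ (n - 1) * c = 2 - 2 ^ (n - 1) := by linarith
    rcases lt_trichotomy c 0 with h7 | h7 | h7
    · nlinarith
    · subst h7; nlinarith
    · nlinarith
  refine ⟨zpowers x, inferInstance, fun a b ha hb => ?_, ?_⟩
  · exact (Subgroup.mul_mem_iff_of_index_two hidx).2 (by tauto)
  · intro c hc w hw hwc
    have h1 : y⁻¹ * w ∈ zpowers x :=
      (Subgroup.mul_mem_iff_of_index_two hidx).2 (by
        have : y⁻¹ ∉ zpowers x := fun h => hyC (by simpa using inv_mem h)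
        tauto)
    rw [Subgroup.mem_zpowers_iff] at hc h1
    obtain ⟨i, rfl⟩ := hc
    obtain ⟨j, hj⟩ := h1
    have hw' : w = y * x ^ j := by rw [hj]; group
    have h2 : w * x ^ i * w⁻¹ = y * x ^ i * y⁻¹ := by
      rw [hw']
      have : y * x ^ j * x ^ i * (y * x ^ j)⁻¹ = y * (x ^ j * x ^ i * (x ^ j)⁻¹) * y⁻¹ := by group
      rw [this, ← zpow_add, add_comm, zpow_add, mul_inv_cancel_right]
    have h3 : y * x ^ i * y⁻¹ = x ^ i := by
      rw [← h2, hwc, mul_inv_cancel_right]
    rw [← conj_zpow, hyx, ← zpow_natCast, ← zpow_mul, zpow_eq_zpow_iff_modEq, hx] at h3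
    have h4 := h3.symm.dvd
    have h5 : ((2 ^ (n - 1) - 1 : ℕ) : ℤ) = 2 ^ (n - 1) - 1 := by
      push_cast [Nat.one_le_two_pow]; ring
    have h6 : ((2 ^ n : ℕ) : ℤ) = 2 * 2 ^ (n - 1) := by
      push_cast
      rw [← pow_succ']
      congr 1
      omega
    have h7 : (2 : ℤ) ^ (n - 1) = 2 * 2 ^ (n - 2) := by
      rw [← pow_succ']
      congr 1
      omega
    rw [h5, h6] at h4
    have h8 : (2 ^ (n - 1) - 1) * i - i = 2 * ((2 ^ (n - 2) - 1) * i) := by rw [h7]; ring
    rw [h8] at h4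
    have h9 : (2 : ℤ) ^ (n - 1) ∣ (2 ^ (n - 2) - 1) * i := (mul_dvd_mul_iff_left (by norm_num)).1 h4
    have h10 : IsCoprime ((2 : ℤ) ^ (n - 1)) (2 ^ (n - 2) - 1) := by
      apply IsCoprime.pow_left
      have h11 : (2 : ℤ) ^ (n - 2) = 2 * 2 ^ (n - 3) := by
        rw [← pow_succ']
        congr 1
        omega
      rw [h11]
      exact ⟨2 ^ (n - 3), -1, by ring⟩
    have h12 := h10.dvd_of_dvd_mul_left h9
    rw [← zpow_add, ← two_mul]
    apply orderOf_dvd_iff_zpow_eq_one.1
    rw [hx, h6]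
    exact mul_dvd_mul_left 2 h12

theorem CycIdxTwo.mem_of_commute {Q : Type*} [Group Q] [Finite Q] (h : CycIdxTwo Q) {V : Subgroup Q}
    (hV : ∀ v ∈ V, v * v = 1) (hcard : 4 ≤ Nat.card V) {g : Q} (hg : ∀ v ∈ V, g * v = v * g) :
    g ∈ V := by
  classical
  obtain ⟨C, hC, h1, h2⟩ := h
  haveI : Fintype C := Fintype.ofFinite _
  have htwo : ∀ F : Finset Q, (∀ c ∈ F, c ∈ C ∧ c * c = 1) → F.card ≤ 2 := by
    intro F hF
    have h3 := IsCyclic.card_pow_eq_one_le (α := C) (n := 2) (by norm_num)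
    refine le_trans ?_ h3
    have h4 : F.card = (F.attach.image (fun c => (⟨c.1, (hF c.1 c.2).1⟩ : C))).card := by
      rw [Finset.card_image_of_injective _ (by
        intro a b hab
        exact Subtype.ext (congrArg (fun z : C => (z : Q)) hab)), Finset.card_attach]
    rw [h4]
    apply Finset.card_le_card
    intro c hc
    rw [Finset.mem_image] at hc
    obtain ⟨a, -, rfl⟩ := hc
    rw [Finset.mem_filter]
    refine ⟨Finset.mem_univ _, ?_⟩
    apply Subtype.ext
    show (a : Q) ^ 2 = 1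
    rw [pow_two]
    exact (hF a.1 a.2).2
  haveI : Fintype V := Fintype.ofFinite _
  have hcardV : (Finset.univ : Finset V).card = Nat.card V := by
    rw [Finset.card_univ, Nat.card_eq_fintype_card]
  -- some element of `V` outside `C`
  obtain ⟨w, hwV, hwC⟩ : ∃ w ∈ V, w ∉ C := by
    by_contra hcon
    push Not at hcon
    have h3 := htwo ((Finset.univ : Finset V).image (fun v : V => (v : Q))) (by
      intro c hc
      rw [Finset.mem_image] at hc
      obtain ⟨v, -, rfl⟩ := hc
      exact ⟨hcon v v.2, hV v v.2⟩)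
    rw [Finset.card_image_of_injective _ Subtype.val_injective, hcardV] at h3
    omega
  -- a nontrivial element of `V ⊓ C`
  obtain ⟨z, hzV, hzC, hz1⟩ : ∃ z ∈ V, z ∈ C ∧ z ≠ 1 := by
    by_contra hcon
    push Not at hcon
    have h3 : (Finset.univ : Finset V).image (fun v : V => (v : Q)) ⊆ {1, w} := by
      intro v hv
      rw [Finset.mem_image] at hv
      obtain ⟨v, -, rfl⟩ := hv
      rw [Finset.mem_insert, Finset.mem_singleton]
      by_cases hvC : (v : Q) ∈ C
      · exact Or.inl (hcon v v.2 hvC)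
      · right
        have h4 := hcon _ (mul_mem v.2 hwV) (h1 _ _ hvC hwC)
        rw [mul_eq_one_iff_eq_inv, inv_eq_of_mul_eq_one_left (hV w hwV)] at h4
        exact h4
    have h4 := Finset.card_le_card h3
    rw [Finset.card_image_of_injective _ Subtype.val_injective, hcardV] at h4
    have h5 := Finset.card_le_two (a := (1 : Q)) (b := w)
    omega
  have key : ∀ c ∈ C, w * c = c * w → c ∈ V := by
    intro c hc hwc
    have h3 := h2 c hc w hwC hwc
    by_contra hcV
    have h4 := htwo {1, z, c} (by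
      intro u hu
      simp only [Finset.mem_insert, Finset.mem_singleton] at hu
      rcases hu with rfl | rfl | rfl
      · exact ⟨one_mem _, by simp⟩
      · exact ⟨hzC, hV _ hzV⟩
      · exact ⟨hc, h3⟩)
    have h5 : c ≠ 1 := by rintro rfl; exact hcV (one_mem _)
    have h6 : c ≠ z := by rintro rfl; exact hcV hzV
    rw [Finset.card_eq_three.2 ⟨1, z, c, hz1.symm, h5.symm, h6.symm, rfl⟩] at h4
    omega
  by_cases hgC : g ∈ C
  · exact key g hgC (hg w hwV).symm
  · have h3 := key _ (h1 _ _ hgC hwC) (by rw [← mul_assoc, ← hg w hwV])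
    have h4 := mul_mem h3 (inv_mem hwV)
    rwa [mul_inv_cancel_right] at h4

end Cfsg.Agent.H21
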